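import Cfsg.Agent.Blocks.MinSquare.Permutation
import Cfsg.Agent.Blocks.TwoChars.BlockAlgebra
import Cfsg.Agent.Blocks.Defect.Nilpotent

/-!
# Blocks of least possible dimension are nilpotent

If `∑ χ(1)² = p ^ (2 a - d)` then the block algebra, as a permutation module of `P × P`, is one
orbit with the diagonal of a defect group as stabilizer, so the action of `N_G(R)` on a
`p`-subgroup `R` carried by the block is that of `N_P(R)`.
-/

set_option autoImplicit false
set_option linter.style.haveILetI false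
open scoped MonoidAlgebra
open Cfsg

namespace CfsgLib.Blocks.MinSquare

open CfsgLib.Blocks CfsgLib.Blocks.TwoChars Module

universe u

variable {G : Type u} [Group G] [Fintype G] {p : ℕ} [Fact p.Prime] {M : Ideal AlgInt} [M.IsMaximal]
  [CharP (kres M) p]

/-- Left and right translation by a subgroup. -/
@[reducible] def biAct (P : Subgroup G) : MulAction (P × P) G where
  smul w x := (w.1 : G) * x * (w.2 : G)⁻¹
  one_smul x := by show ((1 : P) : G) * x * ((1 : P) : G)⁻¹ = x; simp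
  mul_smul a b x := by
    show ((a.1 * b.1 : P) : G) * x * ((a.2 * b.2 : P) : G)⁻¹ =
      (a.1 : G) * ((b.1 : G) * x * (b.2 : G)⁻¹) * (a.2 : G)⁻¹
    push_cast
    rw [mul_inv_rev]
    simp only [mul_assoc]

/-- Conjugation by `x` on a subgroup `R` of `P` carried by the block is conjugation by an element
of `P`. -/
theorem exists_mem_conj_eq {B : Set (IrrCharacter G)} (hB : IsPBlock M B)
    {D : Subgroup G} (hD : IsDefectGroupIdem p ⊤ (topEl M B) D) (P : Sylow p G)
    (hmin : (∑ χ ∈ B.toFinite.toFinset, charDegree (χ : G → ℂ) ^ 2) * Nat.card D =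
      Nat.card (P : Subgroup G) * Nat.card (P : Subgroup G)) {R : Subgroup G}
    (hRP : R ≤ (P : Subgroup G)) (hR : brTrunc R (topEl M B) ≠ 0) {x : G}
    (hx : x ∈ Subgroup.normalizer (R : Set G)) :
    ∃ w ∈ (P : Subgroup G), ∀ r ∈ R, x⁻¹ * r * x = w⁻¹ * r * w := by
  classical
  letI := biAct (P : Subgroup G)
  have hsmul : ∀ (w : ↥(P : Subgroup G) × ↥(P : Subgroup G)) (y : G),
      w • y = (w.1 : G) * y * (w.2 : G)⁻¹ := fun w y => rfl
  set H := ↥(P : Subgroup G) × ↥(P : Subgroup G)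
  have hHp : IsPGroup p H := by
    obtain ⟨n, hn⟩ := IsPGroup.iff_card.mp P.isPGroup'
    exact IsPGroup.of_card (n := n + n) (by rw [Nat.card_prod, hn, pow_add])
  set c : G → kres M := fun g => res M (coeffO hB g) with hcdef
  have hc : ∀ g, c g = (topEl M B).coeff g := fun g => res_coeffO hB g
  have hccl : ∀ g y, c (y * g * y⁻¹) = c g := by
    intro g y
    simp only [hcdef]
    congr 1
    refine Subtype.ext ?_
    show blockCoeff B (y * g * y⁻¹) = blockCoeff B g
    simp only [blockCoeff, finsum_block_eq_sum, irrCharacter_conj]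
  let π : Module.End (kres M) (G → kres M) := ((algMatrix hB).map (res M)).mulVecLin
  have hπ : ∀ (f : G → kres M) g, π f g = ∑ y, c (y⁻¹ * g) * f y := fun f g => rfl
  have hidem : π * π = π := by
    show π.comp π = π
    rw [← Matrix.mulVecLin_mul, ← Matrix.map_mul, algMatrix_mul_self]
  have hcomm : ∀ w : H, Commute π (permRep w) := by
    intro w
    refine LinearMap.ext fun f => funext fun g => ?_
    show π (permRep w f) g = π f (w⁻¹ • g)
    rw [hπ, hπ]
    refine Fintype.sum_equiv (MulAction.toPerm w⁻¹) _ _ fun y => ?_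
    rw [MulAction.toPerm_apply, permRep_apply]
    congr 1
    rw [hsmul, hsmul, Prod.fst_inv, Prod.snd_inv]
    push_cast
    rw [show ((w.1 : G)⁻¹ * y * (w.2 : G)⁻¹⁻¹)⁻¹ * ((w.1 : G)⁻¹ * g * (w.2 : G)⁻¹⁻¹) =
      (w.2 : G)⁻¹ * (y⁻¹ * g) * (w.2 : G)⁻¹⁻¹ by group, hccl]
  have hsingle : ∀ g h, π (Pi.single g 1) h = c (g⁻¹ * h) := by
    intro g h
    rw [hπ, Finset.sum_eq_single g]
    · simp
    · intro y _ hy; rw [Pi.single_eq_of_ne hy, mul_zero]
    · simp
  have hrank : finrank (kres M) (LinearMap.range π) =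
      ∑ χ ∈ B.toFinite.toFinset, charDegree (χ : G → ℂ) ^ 2 :=
    rank_map_res_eq (algMatrix_mul_self hB) (trace_algMatrix hB)
  have hne : π ≠ 0 := by
    intro h
    apply (isBlockIdem_topEl (M := M) hB).ne_zero
    refine MonoidAlgebra.ext (Finsupp.ext fun g => ?_)
    have := congrFun (LinearMap.congr_fun h (Pi.single 1 1)) g
    rw [hsingle, inv_one, one_mul, hc] at this
    simpa using this
  obtain ⟨g, g', hst, hgg', hS⟩ := exists_diagonal π hcomm hidem hHp hne
  -- the stabilizer is a twisted diagonal of a subgroup carried by the block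
  set X := MulAction.stabilizer H g' with hXdef
  let f₁ : H →* G := (P : Subgroup G).subtype.comp (MonoidHom.fst _ _)
  let f₂ : H →* G := (P : Subgroup G).subtype.comp (MonoidHom.snd _ _)
  have hXmem : ∀ {w : H}, w ∈ X ↔ f₁ w * g' * (f₂ w)⁻¹ = g' := fun {w} =>
    MulAction.mem_stabilizer_iff
  have hinj₁ : ∀ a ∈ X, ∀ b ∈ X, f₁ a = f₁ b → a = b := by
    intro a ha b hb hab
    rw [hXmem] at ha hb
    refine Prod.ext (Subtype.ext hab) (Subtype.ext ?_)
    have h := ha.trans hb.symm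
    rw [hab] at h
    exact inv_injective (mul_left_cancel h)
  set Q := X.map f₁ with hQdef
  have hQcard : Nat.card Q = Nat.card X := by
    refine (Nat.card_congr (Equiv.ofBijective (fun a : X => (⟨f₁ a, ⟨a, a.2, rfl⟩⟩ : Q)) ⟨?_, ?_⟩)).symm
    · intro a b h
      have h' : f₁ a = f₁ b := congrArg (fun q : Q => (q : G)) h
      exact Subtype.ext (hinj₁ a a.2 b b.2 h')
    · rintro ⟨_, a, ha, rfl⟩
      exact ⟨⟨a, ha⟩, rfl⟩
  have hQP : Q ≤ (P : Subgroup G) := by rintro _ ⟨a, -, rfl⟩; exact a.1.2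
  have hQbr : brTrunc Q (topEl M B) ≠ 0 := by
    intro h0
    have hmem : g' * g⁻¹ ∈ Subgroup.centralizer (Q : Set G) := by
      rw [Subgroup.mem_centralizer_iff]
      rintro _ ⟨a, ha, rfl⟩
      have ha' : a ∈ MulAction.stabilizer H g := hst ▸ ha
      rw [MulAction.mem_stabilizer_iff, hsmul] at ha'
      rw [SetLike.mem_coe, hXmem] at ha
      change f₁ a * g * (f₂ a)⁻¹ = g at ha'
      calc f₁ a * (g' * g⁻¹) = f₁ a * g' * (f₂ a)⁻¹ * (f₁ a * g * (f₂ a)⁻¹)⁻¹ * f₁ a := by group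
        _ = g' * g⁻¹ * f₁ a := by rw [ha, ha']
    apply hgg'
    rw [hsingle, ← hccl _ g, show g * (g⁻¹ * g') * g⁻¹ = g' * g⁻¹ by group, hc,
      ← coeff_brTrunc_of_mem (topEl M B) hmem, h0]
    rfl
  have hQle : Nat.card Q ≤ Nat.card D := hD.card_le le_top (P.isPGroup'.to_le hQP) hQbr
  have horb : Nat.card (MulAction.orbit H g') * Nat.card X =
      Nat.card (P : Subgroup G) * Nat.card (P : Subgroup G) := by
    rw [← Nat.card_prod ↥(P : Subgroup G) ↥(P : Subgroup G)]
    haveI := Fintype.ofFinite H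
    have := MulAction.card_orbit_mul_card_stabilizer_eq_card_group H g'
    simp only [← Nat.card_eq_fintype_card] at this
    exact this
  have hsmall : finrank (kres M) (LinearMap.range π) ≤ Nat.card (MulAction.orbit H g') := by
    rw [hrank]
    refine Nat.le_of_mul_le_mul_right ?_ (Nat.card_pos (α := D))
    rw [hmin, ← horb, ← hQcard]
    exact Nat.mul_le_mul_left _ hQle
  have hfix := exists_fixed_in_orbit π hcomm hHp hS hsmall
  -- the diagonal of `Q` fixes a point
  have hsub : ∀ (R : Subgroup G) (hRP : R ≤ (P : Subgroup G)) (y : G)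
      (hy : ∀ r ∈ R, y⁻¹ * r * y ∈ (P : Subgroup G)),
      (∃ t ∈ Subgroup.centralizer ((R.map (MulAut.conj y⁻¹).toMonoidHom : Subgroup G) : Set G),
        c t ≠ 0) →
      ∃ ω ∈ MulAction.orbit H g', ∀ r ∈ R, r * ω * (y⁻¹ * r * y)⁻¹ = ω := by
    intro R hRP y hy ht
    obtain ⟨t, htc, hct⟩ := ht
    let φ : R →* H :=
      { toFun := fun r => (⟨r, hRP r.2⟩, ⟨y⁻¹ * r * y, hy r r.2⟩)
        map_one' := Prod.ext (Subtype.ext rfl) (Subtype.ext (by simp))
        map_mul' := fun a b => Prod.ext (Subtype.ext rfl) (Subtype.ext (by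
          show y⁻¹ * ((a : G) * b) * y = (y⁻¹ * a * y) * (y⁻¹ * b * y)
          group)) }
    have hy0 : ∀ r : R, φ r • y = y := fun r => by
      rw [hsmul]
      show (r : G) * y * (y⁻¹ * r * y)⁻¹ = y
      group
    have hA : ∀ w ∈ φ.range, permRep w (π (Pi.single y 1)) = π (Pi.single y 1) := by
      rintro _ ⟨r, rfl⟩
      rw [← map_permRep π hcomm, permRep_single, hy0]
    have hB' : ∀ w ∈ φ.range, w • (y * t) = y * t := by
      rintro _ ⟨r, rfl⟩
      rw [hsmul]
      show (r : G) * (y * t) * (y⁻¹ * r * y)⁻¹ = y * t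
      have hm : y⁻¹ * (r : G) * y ∈ R.map (MulAut.conj y⁻¹).toMonoidHom :=
        ⟨r, r.2, by simp⟩
      have h := Subgroup.mem_centralizer_iff.mp htc _ hm
      calc (r : G) * (y * t) * (y⁻¹ * r * y)⁻¹ = y * (y⁻¹ * r * y * t) * (y⁻¹ * r * y)⁻¹ := by group
        _ = y * t := by rw [h]; group
    have hval : π (Pi.single y 1) (y * t) ≠ 0 := by
      rw [hsingle, inv_mul_cancel_left]
      exact hct
    obtain ⟨ω, hωo, hω⟩ := hfix φ.range ⟨_, rfl⟩ hA hB' hval
    exact ⟨ω, hωo, fun r hr => hω (φ ⟨r, hr⟩) ⟨_, rfl⟩⟩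
  have hbr : ∀ R : Subgroup G, brTrunc R (topEl M B) ≠ 0 →
      ∃ t ∈ Subgroup.centralizer (R : Set G), c t ≠ 0 := by
    intro R hR
    by_contra hcon
    simp only [not_exists, not_and, not_not] at hcon
    refine hR (MonoidAlgebra.ext (Finsupp.ext fun t => ?_))
    by_cases ht : t ∈ Subgroup.centralizer (R : Set G)
    · rw [coeff_brTrunc_of_mem _ ht, ← hc, hcon t ht]
      rfl
    · rw [coeff_brTrunc_of_not_mem _ ht]
      rfl
  obtain ⟨ω₀, hω₀o, hω₀⟩ := hsub Q hQP 1 (fun r hr => by simpa using hQP hr) (by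
    rw [inv_one, map_conj_one]
    exact hbr Q hQbr)
  simp only [inv_one, one_mul, mul_one] at hω₀
  -- the stabilizer of `ω₀` is the diagonal of `Q`
  let δ : Q →* H :=
    { toFun := fun r => (⟨r, hQP r.2⟩, ⟨r, hQP r.2⟩)
      map_one' := rfl
      map_mul' := fun a b => rfl }
  have hδinj : Function.Injective δ := fun a b h =>
    Subtype.ext (congrArg (fun w : H => (w.1 : G)) h)
  have hstab₀ : MulAction.stabilizer H ω₀ = δ.range := by
    refine (Subgroup.eq_of_le_of_card_ge ?_ ?_).symm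
    · rintro _ ⟨r, rfl⟩
      rw [MulAction.mem_stabilizer_iff, hsmul]
      exact hω₀ r r.2
    · obtain ⟨w, rfl⟩ := hω₀o
      have e : Nat.card (MulAction.stabilizer H (w • g')) = Nat.card X := by
        rw [MulAction.stabilizer_smul_eq_stabilizer_map_conj]
        exact card_map_conj X w
      refine le_of_eq (e.trans ?_)
      rw [← hQcard]
      exact (Nat.card_congr (MonoidHom.ofInjective hδinj).toEquiv)
  -- the twisted diagonal of `R` fixes a point
  have hxR : ∀ r ∈ R, x⁻¹ * r * x ∈ R := fun r hr =>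
    (Subgroup.mem_normalizer_iff''.mp hx r).mp hr
  have hRmap : R.map (MulAut.conj x⁻¹).toMonoidHom = R :=
    map_conj_eq_self_of_mem_normalizer (inv_mem hx)
  obtain ⟨ω, hωo, hω⟩ := hsub R hRP x (fun r hr => hRP (hxR r hr)) (by
    rw [hRmap]
    exact hbr R hR)
  obtain ⟨w, rfl⟩ : ω ∈ MulAction.orbit H ω₀ := by
    rwa [MulAction.orbit_eq_iff.mpr hω₀o]
  refine ⟨(w.1 : G) * (w.2 : G)⁻¹, mul_mem w.1.2 (inv_mem w.2.2), fun r hr => ?_⟩
  have hmem : (w⁻¹ * (⟨r, hRP hr⟩, ⟨x⁻¹ * r * x, hRP (hxR r hr)⟩) * w : H) ∈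
      MulAction.stabilizer H ω₀ := by
    rw [MulAction.mem_stabilizer_iff, mul_smul, mul_smul, inv_smul_eq_iff, hsmul]
    exact hω r hr
  rw [hstab₀] at hmem
  obtain ⟨q, hq⟩ := hmem
  have h1 := congrArg (fun w : H => (w.1 : G)) hq
  have h2 := congrArg (fun w : H => (w.2 : G)) hq
  change (q : G) = _ at h1
  change (q : G) = _ at h2
  calc x⁻¹ * r * x = (w.2 : G) * ((w.2 : G)⁻¹ * (x⁻¹ * r * x) * w.2) * (w.2 : G)⁻¹ := by group
    _ = (w.2 : G) * ((w.1 : G)⁻¹ * r * w.1) * (w.2 : G)⁻¹ := by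
      have e : (w.2 : G)⁻¹ * (x⁻¹ * r * x) * w.2 = (w.1 : G)⁻¹ * r * w.1 := h2.symm.trans h1
      rw [e]
    _ = _ := by group

/-- A block of least possible dimension is nilpotent. -/
theorem isNilpotentBlock_of_min (hM : IsPModular p M) {B : Set (IrrCharacter G)} (hB : IsPBlock M B)
    {D : Subgroup G} (hD : IsDefectGroup p M B D)
    (hmin : ∀ P : Sylow p G, (∑ χ ∈ B.toFinite.toFinset, charDegree (χ : G → ℂ) ^ 2) * Nat.card D =
      Nat.card (P : Subgroup G) * Nat.card (P : Subgroup G)) : IsNilpotentBlock p M B := by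
  rw [isNilpotentBlock_iff hB]
  intro R f hf x hx _ hreg
  have hDI := (isDefectGroup_topEl_iff (M := M) hB D).1 hD
  obtain ⟨P, hP⟩ := hf.1.1.exists_le_sylow
  have hR : brTrunc R (topEl M B) ≠ 0 := fun h0 => by
    have h1 : brTrunc R (topEl M B) * f = f := hf.2
    rw [h0, zero_mul] at h1
    exact hf.1.2.2.ne_zero h1.symm
  obtain ⟨w, hw, hwx⟩ := exists_mem_conj_eq hB hDI P (hmin P) hP hR hx
  set C := Subgroup.centralizer (R : Set G) with hC
  have hxw : x * w⁻¹ ∈ C := by
    rw [hC, Subgroup.mem_centralizer_iff]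
    intro r hr
    calc r * (x * w⁻¹) = x * (x⁻¹ * r * x) * w⁻¹ := by group
      _ = x * (w⁻¹ * r * w) * w⁻¹ := by rw [hwx r hr]
      _ = x * w⁻¹ * r := by group
  have hNC := normalizer_le_normalizer_centralizer R hx
  have hpow : ∀ n : ℕ, x ^ n * (w ^ n)⁻¹ ∈ C := by
    intro n
    induction n with
    | zero => simp
    | succ n ih =>
      rw [show x ^ (n + 1) * (w ^ (n + 1))⁻¹ = x * (x ^ n * (w ^ n)⁻¹) * x⁻¹ * (x * w⁻¹) by
        rw [pow_succ' x, pow_succ' w]
        simp only [mul_inv_rev]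
        group]
      exact mul_mem ((Subgroup.mem_normalizer_iff.mp hNC _).mp ih) hxw
  obtain ⟨j, hj⟩ := IsPGroup.iff_orderOf.1 P.isPGroup' ⟨w, hw⟩
  have hwj : w ^ p ^ j = 1 := by
    rw [← hj, Subgroup.orderOf_mk, pow_orderOf_eq_one]
  have hxj : x ^ p ^ j ∈ C := by
    have := hpow (p ^ j)
    rwa [hwj, inv_one, mul_one] at this
  have hco : (p ^ j).Coprime (orderOf x) :=
    Nat.Coprime.pow_left j (hM.1.coprime_iff_not_dvd.mpr hreg)
  obtain ⟨m, hm⟩ := exists_pow_eq_self_of_coprime hco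
  rw [← hm]
  exact pow_mem hxj m

end CfsgLib.Blocks.MinSquare
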