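import Cfsg.Agent.Blocks.OneSimple.Projective
import Mathlib.GroupTheory.GroupAction.Quotient
import Mathlib.LinearAlgebra.Pi

/-!
# Equivariant idempotents on permutation modules of a `p`-group

If a nonzero equivariant idempotent has an image no larger than the orbit of a point where it is
"diagonal", then every fixed point in the image supported at a fixed point of the group forces the
subgroup to fix a point of that orbit.
-/

set_option autoImplicit false
set_option linter.style.haveILetI false

namespace CfsgLib.Blocks.MinSquare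

open Module CfsgLib.Blocks.OneSimple

variable {k : Type*} [Field k] {p : ℕ} [Fact p.Prime] [CharP k p]
  {H : Type*} [Group H] [Finite H] {Ω : Type*} [Fintype Ω] [DecidableEq Ω] [MulAction H Ω]

/-- The permutation representation on functions. -/
def permRep : H →* Module.End k (Ω → k) where
  toFun h := LinearMap.funLeft k k (fun ω : Ω => h⁻¹ • ω)
  map_one' := LinearMap.ext fun f => funext fun ω => by simp [LinearMap.funLeft]
  map_mul' g h := LinearMap.ext fun f => funext fun ω => by
    simp [LinearMap.funLeft, mul_smul]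

omit [Fact p.Prime] [CharP k p] [Finite H] [Fintype Ω] [DecidableEq Ω] in
theorem permRep_apply (h : H) (f : Ω → k) (ω : Ω) : permRep h f ω = f (h⁻¹ • ω) := rfl

omit [Fact p.Prime] [CharP k p] [Finite H] [Fintype Ω] in
theorem permRep_single (h : H) (ω : Ω) :
    permRep h (Pi.single ω (1 : k)) = Pi.single (h • ω) 1 := by
  funext x
  rw [permRep_apply, Pi.single_apply, Pi.single_apply]
  refine if_congr ?_ rfl rfl
  rw [inv_smul_eq_iff]

omit [DecidableEq Ω] in
/-- An invariant function of a `p`-group sums to its sum over the fixed points. -/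
theorem sum_eq_zero_of_no_fixed (hH : IsPGroup p H) (F : Ω → k) (hF : ∀ (h : H) ω, F (h • ω) = F ω)
    (hno : ∀ ω, (∀ h : H, h • ω = ω) → F ω = 0) : ∑ ω, F ω = 0 := by
  classical
  haveI := Fintype.ofFinite H
  haveI := Fintype.ofFinite (MulAction.orbitRel.Quotient H Ω)
  rw [← Finset.sum_fiberwise_of_maps_to (g := (Quotient.mk (MulAction.orbitRel H Ω)))
    (t := Finset.univ) (fun _ _ => Finset.mem_univ _)]
  refine Finset.sum_eq_zero fun q _ => ?_
  induction q using Quotient.inductionOn with
  | h ω₀ =>
    have hset : (Finset.univ.filter fun ω => Quotient.mk (MulAction.orbitRel H Ω) ω =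
        Quotient.mk (MulAction.orbitRel H Ω) ω₀) = (MulAction.orbit H ω₀).toFinset := by
      ext ω
      simp only [Finset.mem_filter, Finset.mem_univ, true_and, Set.mem_toFinset]
      rw [Quotient.eq]
      exact MulAction.orbitRel_apply
    rw [hset, Finset.sum_congr rfl (g := fun _ => F ω₀) fun ω hω => ?_, Finset.sum_const]
    · obtain ⟨n, hn⟩ := hH.card_orbit ω₀
      rw [← Set.ncard_eq_toFinset_card' , ← Nat.card_coe_set_eq, hn, nsmul_eq_mul]
      rcases Nat.eq_zero_or_pos n with rfl | hn0
      · rw [hno ω₀ ?_, mul_zero]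
        intro h
        obtain ⟨hs, -⟩ := Nat.card_eq_one_iff_unique.mp hn
        exact congrArg Subtype.val
          (hs.elim (⟨h • ω₀, MulAction.mem_orbit ω₀ h⟩ : MulAction.orbit H ω₀)
            ⟨ω₀, MulAction.mem_orbit_self ω₀⟩)
      · rw [Nat.cast_pow, CharP.cast_eq_zero k p, zero_pow hn0.ne', zero_mul]
    · obtain ⟨h, rfl⟩ := Set.mem_toFinset.mp hω
      exact hF h ω₀

variable (π : Module.End k (Ω → k)) (hcomm : ∀ h : H, Commute π (permRep h)) (hidem : π * π = π)
include hcomm

omit [Fact p.Prime] [CharP k p] [Finite H] [DecidableEq Ω] [Fintype Ω] in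
theorem map_permRep (h : H) (f : Ω → k) : π (permRep h f) = permRep h (π f) :=
  LinearMap.congr_fun (hcomm h) f

include hidem

open scoped Classical in
/-- A nonzero equivariant idempotent has a diagonal orbit. -/
theorem exists_diagonal (hH : IsPGroup p H) (hne : π ≠ 0) :
    ∃ g g' : Ω, MulAction.stabilizer H g = MulAction.stabilizer H g' ∧
      π (Pi.single g 1) g' ≠ 0 ∧
      (∑ ω ∈ Finset.univ.filter (fun ω => ω ∈ MulAction.orbit H g'), π (Pi.single g 1) ω) ≠ 0 := by
  classical
  by_contra hcon
  simp only [not_exists, not_and, not_not] at hcon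
  set V := LinearMap.range π with hV
  have hVst : ∀ (h : H), ∀ x ∈ V, permRep h x ∈ V := by
    rintro h _ ⟨f, rfl⟩
    exact ⟨permRep h f, map_permRep π hcomm h f⟩
  obtain ⟨hIV, hle⟩ := finrank_le_card_mul hH (permRep (k := k) (H := H) (Ω := Ω)) hVst
  set I := augSub (permRep (k := k) (H := H) (Ω := Ω)) V with hI
  have hππ : ∀ f, π (π f) = π f := fun f => LinearMap.congr_fun hidem f
  have hmem : ∀ (n : ℕ) (g : Ω), Nat.card (MulAction.orbit H g) = n → π (Pi.single g 1) ∈ I := by
    intro n
    induction n using Nat.strong_induction_on with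
    | h n ih =>
      intro g hgn
      set x := π (Pi.single g 1) with hx
      have hxexp : x = ∑ ω, x ω • π (Pi.single ω 1) := by
        conv_lhs => rw [hx, ← hππ, ← hx, pi_eq_sum_univ' x]
        rw [map_sum]
        refine Finset.sum_congr rfl fun ω _ => ?_
        rw [map_smul]
      rw [hxexp, ← Finset.sum_fiberwise_of_maps_to
        (g := (Quotient.mk (MulAction.orbitRel H Ω))) (t := Finset.univ.image _)
        (fun ω _ => Finset.mem_image_of_mem _ (Finset.mem_univ ω))]
      refine Submodule.sum_mem _ fun q hq => ?_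
      obtain ⟨h₀, -, rfl⟩ := Finset.mem_image.mp hq
      have hset : (Finset.univ.filter fun ω => Quotient.mk (MulAction.orbitRel H Ω) ω =
          Quotient.mk (MulAction.orbitRel H Ω) h₀) =
          Finset.univ.filter fun ω => ω ∈ MulAction.orbit H h₀ := by
        refine Finset.filter_congr fun ω _ => ?_
        rw [Quotient.eq]
        exact MulAction.orbitRel_apply
      rw [hset]
      have hcong : ∑ ω ∈ Finset.univ.filter (fun ω => ω ∈ MulAction.orbit H h₀),
          x ω • π (Pi.single ω 1) - (∑ ω ∈ Finset.univ.filter (fun ω => ω ∈ MulAction.orbit H h₀),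
            x ω) • π (Pi.single h₀ 1) ∈ I := by
        rw [Finset.sum_smul, ← Finset.sum_sub_distrib]
        refine Submodule.sum_mem _ fun ω hω => ?_
        obtain ⟨h, rfl⟩ := (Finset.mem_filter.mp hω).2
        rw [← smul_sub]
        refine Submodule.smul_mem _ _ (Submodule.mem_iSup_of_mem h ⟨π (Pi.single h₀ 1), ⟨_, rfl⟩, ?_⟩)
        rw [LinearMap.sub_apply, Module.End.one_apply, ← map_permRep π hcomm, permRep_single]
      rw [← sub_add_cancel (∑ ω ∈ Finset.univ.filter (fun ω => ω ∈ MulAction.orbit H h₀),
        x ω • π (Pi.single ω 1)) ((∑ ω ∈ Finset.univ.filter (fun ω => ω ∈ MulAction.orbit H h₀),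
          x ω) • π (Pi.single h₀ 1))]
      refine add_mem hcong ?_
      by_cases hS : (∑ ω ∈ Finset.univ.filter (fun ω => ω ∈ MulAction.orbit H h₀), x ω) = 0
      · rw [hS, zero_smul]; exact I.zero_mem
      refine Submodule.smul_mem _ _ (ih _ ?_ h₀ rfl)
      -- a fixed point of the stabilizer of `g` in the orbit
      set X := MulAction.stabilizer H g with hX
      have hxfix : ∀ (h : X) ω, x ((h : H) • ω) = x ω := by
        intro h ω
        have hh : permRep (h : H) x = x := by
          rw [hx, ← map_permRep π hcomm, permRep_single, MulAction.mem_stabilizer_iff.mp h.2]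
        conv_lhs => rw [← hh]
        rw [permRep_apply, inv_smul_smul]
      obtain ⟨g', hg'o, hg'fix, hg'x⟩ : ∃ g' ∈ MulAction.orbit H h₀,
          X ≤ MulAction.stabilizer H g' ∧ x g' ≠ 0 := by
        by_contra hno
        simp only [not_exists, not_and, not_not] at hno
        apply hS
        rw [Finset.sum_filter]
        refine sum_eq_zero_of_no_fixed (p := p) (H := X) (hH.to_subgroup X)
          (fun ω => if ω ∈ MulAction.orbit H h₀ then x ω else 0) ?_ ?_
        · intro h ω
          show (if (h : H) • ω ∈ _ then _ else _) = _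
          refine if_congr ?_ (hxfix h ω) rfl
          rw [← MulAction.orbit_eq_iff, ← MulAction.orbit_eq_iff (a := ω), MulAction.orbit_smul]
        · intro ω hω
          split_ifs with hmem
          · exact hno ω hmem fun h hh => MulAction.mem_stabilizer_iff.mpr (hω ⟨h, hh⟩)
          · rfl
      have hne' : X ≠ MulAction.stabilizer H g' := fun heq =>
        hS (by have := hcon g g' heq hg'x; rwa [MulAction.orbit_eq_iff.mpr hg'o] at this)
      have hlt : Nat.card X < Nat.card (MulAction.stabilizer H g') :=
        lt_of_le_of_ne (Subgroup.card_le_of_le hg'fix)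
          fun h => hne' (Subgroup.eq_of_le_of_card_ge hg'fix h.ge)
      rw [← MulAction.orbit_eq_iff.mpr hg'o, ← hgn]
      haveI := Fintype.ofFinite H
      have e1 := MulAction.card_orbit_mul_card_stabilizer_eq_card_group H g
      have e2 := MulAction.card_orbit_mul_card_stabilizer_eq_card_group H g'
      simp only [← Nat.card_eq_fintype_card] at e1 e2
      by_contra hge
      have hpos : 0 < Nat.card (MulAction.orbit H g) := by
        haveI : Nonempty (MulAction.orbit H g) := ⟨⟨g, MulAction.mem_orbit_self g⟩⟩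
        exact Nat.card_pos
      have := Nat.mul_le_mul_right (Nat.card (MulAction.stabilizer H g')) (not_lt.mp hge)
      rw [e2] at this
      have := Nat.mul_lt_mul_of_pos_left hlt hpos
      rw [e1] at this
      omega
  have hVI : V ≤ I := by
    rintro _ ⟨f, rfl⟩
    rw [pi_eq_sum_univ' f, map_sum]
    refine Submodule.sum_mem _ fun ω _ => ?_
    rw [map_smul]
    exact I.smul_mem _ (hmem _ ω rfl)
  rw [le_antisymm hIV hVI, Nat.sub_self, mul_zero, Nat.le_zero] at hle
  refine hne (LinearMap.range_eq_bot.mp (Submodule.finrank_eq_zero.mp hle))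

omit hidem in
open scoped Classical in
/-- With an image no larger than a diagonal orbit, supported fixed points give fixed points in that
orbit. -/
theorem exists_fixed_in_orbit (hH : IsPGroup p H) {g g' : Ω}
    (hS : (∑ ω ∈ Finset.univ.filter (fun ω => ω ∈ MulAction.orbit H g'), π (Pi.single g 1) ω) ≠ 0)
    (hsmall : finrank k (LinearMap.range π) ≤ Nat.card (MulAction.orbit H g')) (R : Subgroup H)
    {y : Ω → k} (hy : y ∈ LinearMap.range π) (hfix : ∀ r ∈ R, permRep r y = y) {c : Ω}
    (hc : ∀ r ∈ R, r • c = c) (hyc : y c ≠ 0) :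
    ∃ ω ∈ MulAction.orbit H g', ∀ r ∈ R, r • ω = ω := by
  classical
  set O := MulAction.orbit H g' with hO
  let res : (Ω → k) →ₗ[k] (O → k) := LinearMap.funLeft k k Subtype.val
  set V := LinearMap.range π with hV
  have hequiv : ∀ (h : H) (f : Ω → k) (ω : O), res (permRep h f) ω = res f (h⁻¹ • ω) :=
    fun h f ω => rfl
  have hrepO : ∀ (h : H) (f : Ω → k), res (permRep h f) = permRep (H := H) (Ω := O) h (res f) :=
    fun h f => funext fun ω => hequiv h f ω
  -- the restriction is onto
  have hsurj : Submodule.map res V = ⊤ := by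
    by_contra hne
    set W := Submodule.map res V with hW
    have hWst : ∀ (h : H), ∀ x ∈ W, permRep (H := H) (Ω := O) h x ∈ W := by
      rintro h _ ⟨v, ⟨f, rfl⟩, rfl⟩
      exact ⟨permRep h (π f), ⟨permRep h f, map_permRep π hcomm h f⟩, hrepO h _⟩
    -- a fixed functional killing the image
    let Φ : Submodule k (Module.Dual k (O → k)) := W.dualAnnihilator
    obtain ⟨x, hx⟩ : ∃ x, x ∉ W := not_forall.mp fun h => hne (eq_top_iff.mpr fun x _ => h x)
    obtain ⟨φ₀, hφ₀, hφW⟩ := Submodule.exists_dual_map_eq_bot_of_notMem (p := W) hx inferInstance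
    let ρ' : H →* Module.End k Φ :=
      { toFun := fun h => (permRep (H := H) (Ω := O) h⁻¹).dualMap.restrict fun φ hφ => by
          rw [Submodule.mem_dualAnnihilator] at hφ ⊢
          exact fun w hw => hφ _ (hWst h⁻¹ w hw)
        map_one' := LinearMap.ext fun φ => Subtype.ext (LinearMap.ext fun w => by
          show φ.1 (permRep (H := H) (Ω := O) (1 : H)⁻¹ w) = φ.1 w
          rw [inv_one, map_one]; rfl)
        map_mul' := fun a b => LinearMap.ext fun φ => Subtype.ext (LinearMap.ext fun w => by
          show φ.1 (permRep (H := H) (Ω := O) (a * b)⁻¹ w) =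
            φ.1 (permRep (H := H) (Ω := O) b⁻¹ (permRep (H := H) (Ω := O) a⁻¹ w))
          rw [mul_inv_rev, map_mul]; rfl) }
    have hφmem : φ₀ ∈ Φ := by
      rw [Submodule.mem_dualAnnihilator]
      intro w hw
      have : φ₀ w ∈ W.map φ₀ := ⟨w, hw, rfl⟩
      rwa [hφW, Submodule.mem_bot] at this
    obtain ⟨φ, hφne, hφfix⟩ := exists_fixed_vector hH ρ' (v := (⟨φ₀, hφmem⟩ : Φ))
      fun h => hφ₀ (by rw [show φ₀ = 0 from congrArg Subtype.val h]; rfl)
    set o₀ : O := ⟨g', MulAction.mem_orbit_self g'⟩
    have hconst : ∀ ω : O, φ.1 (Pi.single ω 1) = φ.1 (Pi.single o₀ 1) := by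
      rintro ⟨_, h, rfl⟩
      have := LinearMap.congr_fun (congrArg Subtype.val (hφfix h⁻¹)) (Pi.single o₀ 1)
      change φ.1 (permRep (H := H) (Ω := O) h⁻¹⁻¹ (Pi.single o₀ 1)) = _ at this
      rw [inv_inv, permRep_single] at this
      exact this
    have hval : ∀ f : O → k, φ.1 f = (∑ ω, f ω) * φ.1 (Pi.single o₀ 1) := by
      intro f
      conv_lhs => rw [pi_eq_sum_univ' f]
      rw [map_sum, Finset.sum_mul]
      refine Finset.sum_congr rfl fun ω _ => ?_
      rw [map_smul, hconst, smul_eq_mul]
    have h0 : φ.1 (Pi.single o₀ 1) = 0 := by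
      have h := (Submodule.mem_dualAnnihilator _).mp φ.2 (res (π (Pi.single g 1))) ⟨_, ⟨_, rfl⟩, rfl⟩
      rw [hval] at h
      refine (mul_eq_zero.mp h).resolve_left ?_
      convert hS using 1
      rw [Finset.sum_subtype (Finset.univ.filter fun ω => ω ∈ O) (p := fun x => x ∈ O)
        (fun x => by simp) (fun ω => π (Pi.single g 1) ω)]
      rfl
    exact hφne (Subtype.ext (LinearMap.ext fun f => by rw [hval, h0, mul_zero]; rfl))
  -- hence bijective on the image
  let resV : V →ₗ[k] (O → k) := res.comp V.subtype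
  have hresV : Function.Surjective resV := by
    intro f
    obtain ⟨v, hv, hvf⟩ := (hsurj ▸ Submodule.mem_top : f ∈ Submodule.map res V)
    exact ⟨⟨v, hv⟩, hvf⟩
  have hbij : Function.Bijective resV := by
    refine ⟨?_, hresV⟩
    have hOcard : finrank k (O → k) = Nat.card O := by
      rw [Module.finrank_fintype_fun_eq_card, Nat.card_eq_fintype_card]
    have h := LinearMap.finrank_range_add_finrank_ker resV
    rw [LinearMap.range_eq_top.mpr hresV, finrank_top, hOcard] at h
    refine LinearMap.ker_eq_bot.mp (Submodule.finrank_eq_zero.mp ?_)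
    omega
  choose z hz using fun ω : O => hresV (Pi.single ω 1)
  have hyexp : y = ∑ ω : O, y ω • ((z ω : V) : Ω → k) := by
    have h1 : (⟨y, hy⟩ : V) = ∑ ω : O, y ω • z ω := hbij.1 (by
      rw [map_sum]
      simp only [map_smul, hz]
      conv_lhs => rw [pi_eq_sum_univ' (resV ⟨y, hy⟩)]
      rfl)
    have h2 := congrArg Subtype.val h1
    simpa only [Submodule.coe_sum, Submodule.coe_smul] using h2
  have hzeq : ∀ (r : H) (ω : O), ((z (r • ω) : V) : Ω → k) = permRep r ((z ω : V) : Ω → k) := by
    intro r ω
    have hmemV : permRep r ((z ω : V) : Ω → k) ∈ V := by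
      obtain ⟨f, hf⟩ := (z ω).2
      exact ⟨permRep r f, by rw [map_permRep π hcomm, hf]⟩
    refine congrArg Subtype.val (hbij.1 (a₁ := z (r • ω)) (a₂ := ⟨_, hmemV⟩) ?_)
    rw [hz]
    show _ = res (permRep r _)
    rw [hrepO, show res ((z ω : V) : Ω → k) = resV (z ω) from rfl, hz, permRep_single]
  by_contra hcon
  simp only [not_exists, not_and] at hcon
  apply hyc
  rw [hyexp, Finset.sum_apply]
  refine sum_eq_zero_of_no_fixed (p := p) (H := R) (hH.to_subgroup R)
    (fun ω : O => (y ω • ((z ω : V) : Ω → k)) c) ?_ ?_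
  · intro r ω
    show (y ((r : H) • ω : O) • ((z ((r : H) • ω) : V) : Ω → k)) c = _
    rw [hzeq, Pi.smul_apply, Pi.smul_apply, permRep_apply]
    have e1 : y (((r : H) • ω : O) : Ω) = y (ω : Ω) := by
      have := congrFun (hfix r r.2) (((r : H) • ω : O) : Ω)
      rw [permRep_apply] at this
      rw [← this]
      congr 1
      exact inv_smul_smul (r : H) (ω : Ω)
    rw [e1, inv_smul_eq_iff.mpr (hc r r.2).symm]
  · intro ω hω
    exact absurd (fun r hr => congrArg Subtype.val (hω ⟨r, hr⟩)) (hcon ω ω.2)

end CfsgLib.Blocks.MinSquare
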